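import Mathlib
import Cfsg.Prelude.Def_Transfer
import Cfsg.Agent.Lib.Basic.Frattini

/-!
# Real Clifford-type matrices attached to a bilinear form over `𝔽₂`

For a bilinear form `β` on an `𝔽₂`-space `U` we build signed permutation matrices `LL β a`
with `LL a * LL b = (-1)^{β b a} LL (a + b)`.  Their span is a matrix algebra in which
isometries of the quadratic form `u ↦ β u u` are realised by conjugation by orthogonal matrices.
-/

set_option autoImplicit false

namespace Cfsg.Agent.Lib.LocalEven2.Ext1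

open Matrix

/-- The sign `(-1)^a`. -/
noncomputable def sg (a : ZMod 2) : ℝ := if a = 0 then 1 else -1

theorem sg_zero : sg 0 = 1 := by simp [sg]

theorem sg_one : sg 1 = -1 := by simp [sg]

theorem sg_cases (a : ZMod 2) : a = 0 ∨ a = 1 := by
  revert a; decide

theorem sg_add (a b : ZMod 2) : sg (a + b) = sg a * sg b := by
  rcases sg_cases a with rfl | rfl <;> rcases sg_cases b with rfl | rfl
  · simp [sg]
  · simp [sg]
  · simp [sg]
  · have : (1 : ZMod 2) + 1 = 0 := by decide
    rw [this]; simp [sg]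

theorem sg_mul_self (a : ZMod 2) : sg a * sg a = 1 := by
  rcases sg_cases a with rfl | rfl <;> simp [sg]

theorem sg_ne_zero (a : ZMod 2) : sg a ≠ 0 := by
  rcases sg_cases a with rfl | rfl <;> simp [sg]

theorem sg_eq_one_iff {a : ZMod 2} : sg a = 1 ↔ a = 0 := by
  rcases sg_cases a with rfl | rfl
  · simp [sg]
  · simp only [sg_one]; constructor
    · intro h; norm_num at h
    · intro h; exact absurd h (by decide)

theorem sg_inj {a b : ZMod 2} (h : sg a = sg b) : a = b := by
  rcases sg_cases a with rfl | rfl <;> rcases sg_cases b with rfl | rfl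
  · rfl
  · rw [sg_zero, sg_one] at h; norm_num at h
  · rw [sg_zero, sg_one] at h; norm_num at h
  · rfl

theorem sg_or (a : ZMod 2) : sg a = 1 ∨ sg a = -1 := by
  rcases sg_cases a with rfl | rfl
  · left; exact sg_zero
  · right; exact sg_one

theorem exists_sg {ε : ℝ} (h : ε = 1 ∨ ε = -1) : ∃ b : ZMod 2, sg b = ε := by
  rcases h with rfl | rfl
  · exact ⟨0, sg_zero⟩
  · exact ⟨1, sg_one⟩

variable {U : Type*} [AddCommGroup U] [Module (ZMod 2) U]

theorem add_self' (a : U) : a + a = 0 := by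
  have h : (2 : ZMod 2) • a = 0 := by
    have : (2 : ZMod 2) = 0 := by decide
    rw [this, zero_smul]
  rwa [two_smul] at h

/-- Polarisation of a bilinear form. -/
def pol (β : U →ₗ[ZMod 2] U →ₗ[ZMod 2] ZMod 2) (a b : U) : ZMod 2 := β a b + β b a

theorem pol_comm (β : U →ₗ[ZMod 2] U →ₗ[ZMod 2] ZMod 2) (a b : U) : pol β a b = pol β b a := by
  simp [pol, add_comm]

theorem zmod2_add_self (a : ZMod 2) : a + a = 0 := by
  revert a; decide

variable [Fintype U] [DecidableEq U] (β : U →ₗ[ZMod 2] U →ₗ[ZMod 2] ZMod 2)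

/-- The signed permutation matrix attached to `a`. -/
noncomputable def LL (a : U) : Matrix U U ℝ :=
  Matrix.of fun v w => if w = a + v then sg (β a v) else 0

theorem LL_apply (a v w : U) : LL β a v w = if w = a + v then sg (β a v) else 0 := rfl

theorem LL_zero : LL β (0 : U) = 1 := by
  ext v w
  rw [LL_apply, Matrix.one_apply]
  by_cases h : v = w
  · subst h; simp [sg_zero]
  · have h' : ¬ w = 0 + v := by rw [zero_add]; exact fun e => h e.symm
    rw [if_neg h', if_neg h]

theorem LL_mul (a b : U) : LL β a * LL β b = sg (β b a) • LL β (a + b) := by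
  ext v w
  rw [Matrix.mul_apply, Matrix.smul_apply, smul_eq_mul, LL_apply β (a + b)]
  rw [Finset.sum_eq_single (a + v)]
  · rw [LL_apply, if_pos rfl, LL_apply]
    by_cases h : w = b + (a + v)
    · have h' : w = a + b + v := by rw [h]; abel
      rw [if_pos h, if_pos h', map_add, map_add, LinearMap.add_apply, sg_add, sg_add]
      ring
    · have h' : ¬ w = a + b + v := by
        intro e; apply h; rw [e]; abel
      rw [if_neg h, if_neg h']; simp
  · intro x _ hx
    rw [LL_apply, if_neg hx, zero_mul]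
  · intro h; exact absurd (Finset.mem_univ _) h

theorem LL_mul_self (a : U) : LL β a * LL β a = sg (β a a) • (1 : Matrix U U ℝ) := by
  rw [LL_mul, add_self', LL_zero]

theorem LL_transpose (a : U) : (LL β a)ᵀ = sg (β a a) • LL β a := by
  ext v w
  rw [Matrix.transpose_apply, Matrix.smul_apply, smul_eq_mul, LL_apply, LL_apply]
  by_cases h : w = a + v
  · have h' : v = a + w := by rw [h, ← add_assoc, add_self', zero_add]
    rw [if_pos h', if_pos h, h, map_add, sg_add]
  · have h' : ¬ v = a + w := by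
      intro e; apply h; rw [e, ← add_assoc, add_self', zero_add]
    rw [if_neg h', if_neg h, mul_zero]

theorem LL_tr_mul (a : U) : (LL β a)ᵀ * LL β a = 1 := by
  rw [LL_transpose, smul_mul_assoc, LL_mul_self, smul_smul, sg_mul_self, one_smul]

theorem LL_mul_tr (a : U) : LL β a * (LL β a)ᵀ = 1 := by
  rw [LL_transpose, mul_smul_comm, LL_mul_self, smul_smul, sg_mul_self, one_smul]

theorem LL_comm (a b : U) : LL β a * LL β b = sg (pol β a b) • (LL β b * LL β a) := by
  rw [LL_mul, LL_mul, smul_smul, pol, sg_add, add_comm b a]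
  congr 1
  calc sg (β b a) = (sg (β a b) * sg (β a b)) * sg (β b a) := by rw [sg_mul_self, one_mul]
    _ = _ := by ring

theorem LL_conj (a b : U) : LL β a * LL β b * (LL β a)ᵀ = sg (pol β a b) • LL β b := by
  rw [LL_comm, smul_mul_assoc, mul_assoc, LL_mul_tr, mul_one]

theorem LL_zero_apply (a w : U) : LL β a 0 w = if w = a then 1 else 0 := by
  rw [LL_apply, add_zero, map_zero, sg_zero]

/-- The span of the matrices `LL a`. -/
noncomputable def AA : Submodule ℝ (Matrix U U ℝ) := Submodule.span ℝ (Set.range (LL β))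

theorem LL_mem (a : U) : LL β a ∈ AA β := Submodule.subset_span ⟨a, rfl⟩

theorem one_mem_AA : (1 : Matrix U U ℝ) ∈ AA β := by
  rw [← LL_zero β]; exact LL_mem β 0

theorem AA_mul {X Y : Matrix U U ℝ} (hX : X ∈ AA β) (hY : Y ∈ AA β) : X * Y ∈ AA β := by
  induction hX using Submodule.span_induction with
  | mem x hx =>
    obtain ⟨a, rfl⟩ := hx
    induction hY using Submodule.span_induction with
    | mem y hy =>
      obtain ⟨b, rfl⟩ := hy
      rw [LL_mul]
      exact Submodule.smul_mem _ _ (LL_mem β _)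
    | zero => rw [mul_zero]; exact Submodule.zero_mem _
    | add y z _ _ hy hz => rw [mul_add]; exact add_mem hy hz
    | smul r y _ hy => rw [mul_smul_comm]; exact Submodule.smul_mem _ _ hy
  | zero => rw [zero_mul]; exact Submodule.zero_mem _
  | add x z _ _ hx hz => rw [add_mul]; exact add_mem hx hz
  | smul r x _ hx => rw [smul_mul_assoc]; exact Submodule.smul_mem _ _ hx

theorem AA_transpose {X : Matrix U U ℝ} (hX : X ∈ AA β) : Xᵀ ∈ AA β := by
  induction hX using Submodule.span_induction with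
  | mem x hx =>
    obtain ⟨a, rfl⟩ := hx
    rw [LL_transpose]
    exact Submodule.smul_mem _ _ (LL_mem β _)
  | zero => rw [Matrix.transpose_zero]; exact Submodule.zero_mem _
  | add x z _ _ hx hz => rw [Matrix.transpose_add]; exact add_mem hx hz
  | smul r x _ hx => rw [Matrix.transpose_smul]; exact Submodule.smul_mem _ _ hx

theorem AA_expand {X : Matrix U U ℝ} (hX : X ∈ AA β) : X = ∑ w, X 0 w • LL β w := by
  induction hX using Submodule.span_induction with
  | mem x hx =>
    obtain ⟨a, rfl⟩ := hx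
    rw [Finset.sum_eq_single a]
    · rw [LL_zero_apply, if_pos rfl, one_smul]
    · intro b _ hb
      rw [LL_zero_apply, if_neg hb, zero_smul]
    · intro h; exact absurd (Finset.mem_univ _) h
  | zero => simp
  | add x z _ _ hx hz =>
    conv_lhs => rw [hx, hz]
    rw [← Finset.sum_add_distrib]
    refine Finset.sum_congr rfl fun w _ => ?_
    rw [Matrix.add_apply, add_smul]
  | smul r x _ hx =>
    conv_lhs => rw [hx]
    rw [Finset.smul_sum]
    refine Finset.sum_congr rfl fun w _ => ?_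
    rw [Matrix.smul_apply, smul_eq_mul, mul_smul]

theorem coef_conj {X : Matrix U U ℝ} (hX : X ∈ AA β) (v w : U) :
    (LL β v * X * (LL β v)ᵀ) 0 w = sg (pol β v w) * X 0 w := by
  induction hX using Submodule.span_induction with
  | mem x hx =>
    obtain ⟨a, rfl⟩ := hx
    rw [LL_conj, Matrix.smul_apply, smul_eq_mul, LL_zero_apply]
    by_cases h : w = a
    · subst h; rfl
    · rw [if_neg h, mul_zero, mul_zero]
  | zero => simp
  | add x z _ _ hx hz =>
    rw [mul_add, add_mul, Matrix.add_apply, hx, hz, Matrix.add_apply, mul_add]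
  | smul r x _ hx =>
    rw [mul_smul_comm, smul_mul_assoc, Matrix.smul_apply, hx, Matrix.smul_apply, smul_eq_mul,
      smul_eq_mul]
    ring

variable {β}

/-- Elements of the span that are eigenvectors for all conjugations by the `LL v` are multiples of a
single `LL u`. -/
theorem exists_single (hnd : ∀ u, (∀ v, pol β v u = 0) → u = 0) {X : Matrix U U ℝ} (hX : X ∈ AA β)
    (ε : U → ℝ) (hε : ∀ v, LL β v * X * (LL β v)ᵀ = ε v • X) :
    ∃ u, X = X 0 u • LL β u ∧ ∀ v, X 0 u ≠ 0 → ε v = sg (pol β v u) := by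
  have key : ∀ v w, sg (pol β v w) * X 0 w = ε v * X 0 w := by
    intro v w
    rw [← coef_conj β hX, hε, Matrix.smul_apply, smul_eq_mul]
  by_cases h0 : ∀ w, X 0 w = 0
  · refine ⟨0, ?_, fun v h => absurd (h0 0) h⟩
    rw [AA_expand β hX]
    simp [h0]
  · push Not at h0
    obtain ⟨u, hu⟩ := h0
    have hε' : ∀ v, ε v = sg (pol β v u) := fun v => (mul_right_cancel₀ hu (key v u)).symm
    refine ⟨u, ?_, fun v _ => hε' v⟩
    conv_lhs => rw [AA_expand β hX]
    rw [Finset.sum_eq_single u]
    · intro w _ hw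
      by_contra hne
      have hxw : X 0 w ≠ 0 := fun e => hne (by rw [e, zero_smul])
      have h1 : ∀ v, sg (pol β v w) = sg (pol β v u) := fun v => by
        rw [← hε' v]; exact mul_right_cancel₀ hxw (key v w)
      have h2 : ∀ v, pol β v (w + u) = 0 := fun v => by
        have := sg_inj (h1 v)
        have h3 : pol β v (w + u) = pol β v w + pol β v u := by
          simp only [pol, map_add, LinearMap.add_apply]; ring
        rw [h3, this, zmod2_add_self]
      have h3 := hnd _ h2
      apply hw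
      have h4 : w + u + u = u := by rw [h3, zero_add]
      rw [add_assoc, add_self', add_zero] at h4
      exact h4
    · intro h; exact absurd (Finset.mem_univ _) h

theorem eq_scalar_of_commute (hnd : ∀ u, (∀ v, pol β v u = 0) → u = 0) {X : Matrix U U ℝ}
    (hX : X ∈ AA β) (hc : ∀ v, LL β v * X * (LL β v)ᵀ = X) : X = X 0 0 • (1 : Matrix U U ℝ) := by
  obtain ⟨u, hu, hu'⟩ := exists_single hnd hX (fun _ => 1) (fun v => by rw [one_smul]; exact hc v)
  by_cases h : X 0 u = 0
  · rw [h, zero_smul] at hu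
    rw [hu]; simp
  · have hu0 : u = 0 := hnd u fun v => by
      have := hu' v h
      exact sg_eq_one_iff.mp this.symm
    subst hu0
    rw [LL_zero] at hu
    exact hu

/-! ### Isometries and eigenvectors -/

variable (g : U → U)

/-- The twisted conjugation attached to `g`. -/
noncomputable def Phi (β : U →ₗ[ZMod 2] U →ₗ[ZMod 2] ZMod 2) (v : U) (X : Matrix U U ℝ) :
    Matrix U U ℝ :=
  LL β (g v) * X * (LL β v)ᵀ

theorem Phi_add (v : U) (X Y : Matrix U U ℝ) : Phi g β v (X + Y) = Phi g β v X + Phi g β v Y := by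
  simp only [Phi, mul_add, add_mul]

theorem Phi_smul (v : U) (c : ℝ) (X : Matrix U U ℝ) : Phi g β v (c • X) = c • Phi g β v X := by
  simp only [Phi, mul_smul_comm, smul_mul_assoc]

theorem Phi_mem (v : U) {X : Matrix U U ℝ} (hX : X ∈ AA β) : Phi g β v X ∈ AA β :=
  AA_mul β (AA_mul β (LL_mem β _) hX) (AA_transpose β (LL_mem β _))

variable {g}

theorem Phi_invol (hg : ∀ u, β (g u) (g u) = β u u) (v : U) (X : Matrix U U ℝ) :
    Phi g β v (Phi g β v X) = X := by
  have h1 : (LL β v)ᵀ * (LL β v)ᵀ = sg (β v v) • (1 : Matrix U U ℝ) := by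
    rw [← Matrix.transpose_mul, LL_mul_self, Matrix.transpose_smul, Matrix.transpose_one]
  calc Phi g β v (Phi g β v X) = (LL β (g v) * LL β (g v)) * X * ((LL β v)ᵀ * (LL β v)ᵀ) := by
        simp only [Phi, mul_assoc]
    _ = X := by
        rw [h1, LL_mul_self, hg, smul_mul_assoc, one_mul, mul_smul_comm, mul_one, smul_smul,
          sg_mul_self, one_smul]

theorem Phi_comm (hg : ∀ u v, pol β (g u) (g v) = pol β u v) (v w : U) (X : Matrix U U ℝ) :
    Phi g β v (Phi g β w X) = Phi g β w (Phi g β v X) := by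
  have h1 : (LL β w)ᵀ * (LL β v)ᵀ = sg (pol β v w) • ((LL β v)ᵀ * (LL β w)ᵀ) := by
    rw [← Matrix.transpose_mul, LL_comm, Matrix.transpose_smul, Matrix.transpose_mul]
  calc Phi g β v (Phi g β w X) = (LL β (g v) * LL β (g w)) * X * ((LL β w)ᵀ * (LL β v)ᵀ) := by
        simp only [Phi, mul_assoc]
    _ = (sg (pol β v w) • (LL β (g w) * LL β (g v))) * X *
          (sg (pol β v w) • ((LL β v)ᵀ * (LL β w)ᵀ)) := by
        rw [h1, LL_comm β (g v) (g w), hg]
    _ = (LL β (g w) * LL β (g v)) * X * ((LL β v)ᵀ * (LL β w)ᵀ) := by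
        simp only [smul_mul_assoc, mul_smul_comm, smul_smul, sg_mul_self, one_smul]
    _ = Phi g β w (Phi g β v X) := by
        simp only [Phi, mul_assoc]

theorem one_ne_zero_matrix : (1 : Matrix U U ℝ) ≠ 0 := by
  intro h
  have := congrFun (congrFun h 0) 0
  simp at this

theorem exists_eigen (hg : ∀ u, β (g u) (g u) = β u u) (hg' : ∀ u v, pol β (g u) (g v) = pol β u v)
    (S : Finset U) :
    ∃ X ∈ AA β, X ≠ 0 ∧ ∀ v ∈ S, ∃ ε : ℝ, (ε = 1 ∨ ε = -1) ∧ Phi g β v X = ε • X := by
  classical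
  induction S using Finset.induction_on with
  | empty => exact ⟨1, one_mem_AA β, one_ne_zero_matrix, by simp⟩
  | insert a S _ ih =>
    obtain ⟨X, hXA, hX0, hX⟩ := ih
    by_cases h : X + Phi g β a X = 0
    · refine ⟨X, hXA, hX0, ?_⟩
      intro v hv
      rcases Finset.mem_insert.mp hv with rfl | hv
      · refine ⟨-1, Or.inr rfl, ?_⟩
        rw [neg_smul, one_smul]
        exact (eq_neg_of_add_eq_zero_right h)
      · exact hX v hv
    · refine ⟨X + Phi g β a X, add_mem hXA (Phi_mem g a hXA), h, ?_⟩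
      intro v hv
      rcases Finset.mem_insert.mp hv with rfl | hv
      · refine ⟨1, Or.inl rfl, ?_⟩
        rw [one_smul, Phi_add, Phi_invol hg, add_comm]
      · obtain ⟨ε, hε, e⟩ := hX v hv
        refine ⟨ε, hε, ?_⟩
        rw [Phi_add, Phi_comm hg', e, Phi_smul, smul_add]

/-- Every isometry of the quadratic form `u ↦ β u u` is realised by an orthogonal element of the
span. -/
theorem exists_orth (hnd : ∀ u, (∀ v, pol β v u = 0) → u = 0)
    (hg : ∀ u, β (g u) (g u) = β u u) (hg' : ∀ u v, pol β (g u) (g v) = pol β u v) :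
    ∃ T ∈ AA β, Tᵀ * T = 1 ∧
      ∀ v, ∃ ε : ℝ, (ε = 1 ∨ ε = -1) ∧ T * LL β v * Tᵀ = ε • LL β (g v) := by
  obtain ⟨T₀, hT₀, hne, hT⟩ := exists_eigen hg hg' (Finset.univ)
  have hT' : ∀ v, ∃ ε : ℝ, (ε = 1 ∨ ε = -1) ∧ Phi g β v T₀ = ε • T₀ :=
    fun v => hT v (Finset.mem_univ _)
  choose ε hε hεT using hT'
  have hεε : ∀ v, ε v * ε v = 1 := fun v => by
    rcases hε v with h | h <;> rw [h] <;> norm_num
  -- `T₀ᵀ * T₀` is a scalar
  have hsym : ∀ v, LL β v * (T₀ᵀ * T₀) * (LL β v)ᵀ = T₀ᵀ * T₀ := by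
    intro v
    have h1 : LL β (g v) * T₀ * (LL β v)ᵀ = ε v • T₀ := hεT v
    have h2 : T₀ * (LL β v)ᵀ = ε v • ((LL β (g v))ᵀ * T₀) := by
      calc T₀ * (LL β v)ᵀ = (LL β (g v))ᵀ * (LL β (g v) * T₀ * (LL β v)ᵀ) := by
            simp only [← mul_assoc, LL_tr_mul, one_mul]
        _ = _ := by rw [h1, mul_smul_comm]
    have h3 : (T₀ * (LL β v)ᵀ)ᵀ = ε v • ((LL β (g v))ᵀ * T₀)ᵀ := by
      rw [h2, Matrix.transpose_smul]
    simp only [Matrix.transpose_mul, Matrix.transpose_transpose] at h3
    calc LL β v * (T₀ᵀ * T₀) * (LL β v)ᵀ = (LL β v * T₀ᵀ) * (T₀ * (LL β v)ᵀ) := by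
          simp only [mul_assoc]
      _ = (ε v • (T₀ᵀ * LL β (g v))) * (ε v • ((LL β (g v))ᵀ * T₀)) := by rw [h2, h3]
      _ = T₀ᵀ * T₀ := by
          rw [smul_mul_assoc, mul_smul_comm, smul_smul, hεε, one_smul]
          simp only [mul_assoc]
          rw [← mul_assoc (LL β (g v)), LL_mul_tr, one_mul]
  have hY := eq_scalar_of_commute hnd (AA_mul β (AA_transpose β hT₀) hT₀) hsym
  set c : ℝ := (T₀ᵀ * T₀) 0 0 with hc
  have hc0 : 0 ≤ c := by
    rw [hc, Matrix.mul_apply]
    exact Finset.sum_nonneg fun i _ => by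
      rw [Matrix.transpose_apply]; exact mul_self_nonneg _
  have hcne : c ≠ 0 := by
    intro h
    rw [h, zero_smul] at hY
    apply hne
    have : T₀ᴴ * T₀ = 0 := by
      rw [Matrix.conjTranspose_eq_transpose_of_trivial]; exact hY
    exact Matrix.conjTranspose_mul_self_eq_zero.mp this
  have hcpos : 0 < c := lt_of_le_of_ne hc0 (Ne.symm hcne)
  set r : ℝ := (Real.sqrt c)⁻¹ with hr
  have hr2 : r * r * c = 1 := by
    have hs : Real.sqrt c * Real.sqrt c = c := Real.mul_self_sqrt hc0
    have hs0 : Real.sqrt c ≠ 0 := (Real.sqrt_pos.mpr hcpos).ne'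
    rw [hr]
    field_simp
    nlinarith [hs]
  have hrne : r ≠ 0 := by
    intro h; rw [h] at hr2; simp at hr2
  have hTT : (r • T₀)ᵀ * (r • T₀) = 1 := by
    rw [Matrix.transpose_smul, smul_mul_assoc, mul_smul_comm, smul_smul, hY, smul_smul, hr2,
      one_smul]
  refine ⟨r • T₀, Submodule.smul_mem _ _ hT₀, hTT, fun v => ⟨ε v, hε v, ?_⟩⟩
  have hTT' : (r • T₀) * (r • T₀)ᵀ = 1 := mul_eq_one_comm.mp hTT
  have h1 : LL β (g v) * T₀ * (LL β v)ᵀ = ε v • T₀ := hεT v
  have h2 : LL β (g v) * (r • T₀) = ε v • ((r • T₀) * LL β v) := by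
    calc LL β (g v) * (r • T₀) = r • ((LL β (g v) * T₀ * (LL β v)ᵀ) * LL β v) := by
          rw [mul_assoc (LL β (g v) * T₀), LL_tr_mul, mul_one, mul_smul_comm]
      _ = _ := by
          rw [h1, smul_mul_assoc, smul_smul, smul_mul_assoc, smul_smul, mul_comm]
  have h3 : (r • T₀) * LL β v = ε v • (LL β (g v) * (r • T₀)) := by
    rw [h2, smul_smul, hεε, one_smul]
  rw [h3, smul_mul_assoc, mul_assoc, hTT', mul_one]

end Cfsg.Agent.Lib.LocalEven2.Ext1
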