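import Cfsg.Agent.Lib.LocalEven2.Ext1

/-!
# The group of orthogonal elements of the Clifford-type algebra covering a group of isometries
-/

set_option autoImplicit false

namespace Cfsg.Agent.Lib.LocalEven2.Ext1

open Matrix

variable {U : Type*} [AddCommGroup U] [Module (ZMod 2) U] [Fintype U] [DecidableEq U]
variable (β : U →ₗ[ZMod 2] U →ₗ[ZMod 2] ZMod 2)
variable {K : Type*} [Group K] (ρ : K →* (U →ₗ[ZMod 2] U))

theorem inv_val_eq (T : (Matrix U U ℝ)ˣ) (h : (T : Matrix U U ℝ)ᵀ * T = 1) :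
    ((T⁻¹ : (Matrix U U ℝ)ˣ) : Matrix U U ℝ) = (T : Matrix U U ℝ)ᵀ := by
  have h1 : ((T⁻¹ : (Matrix U U ℝ)ˣ) : Matrix U U ℝ) * T = 1 := by
    rw [Units.inv_mul]
  have h2 : (T : Matrix U U ℝ) * ((T⁻¹ : (Matrix U U ℝ)ˣ) : Matrix U U ℝ) = 1 := by
    rw [Units.mul_inv]
  calc ((T⁻¹ : (Matrix U U ℝ)ˣ) : Matrix U U ℝ)
      = ((T : Matrix U U ℝ)ᵀ * T) * ((T⁻¹ : (Matrix U U ℝ)ˣ) : Matrix U U ℝ) := by rw [h, one_mul]
    _ = _ := by rw [mul_assoc, h2, mul_one]

/-- The group of orthogonal elements of the span normalising `{±LL v}` compatibly with `K`. -/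
def RR : Subgroup ((Matrix U U ℝ)ˣ × K) where
  carrier := {x | (x.1 : Matrix U U ℝ) ∈ AA β ∧ (x.1 : Matrix U U ℝ)ᵀ * x.1 = 1 ∧
    ∀ v, ∃ ε : ℝ, (ε = 1 ∨ ε = -1) ∧
      (x.1 : Matrix U U ℝ) * LL β v * (x.1 : Matrix U U ℝ)ᵀ = ε • LL β (ρ x.2 v)}
  mul_mem' := by
    rintro ⟨S, k⟩ ⟨T, l⟩ ⟨hS, hS1, hS2⟩ ⟨hT, hT1, hT2⟩
    simp only at hS hS1 hS2 hT hT1 hT2
    refine ⟨AA_mul β hS hT, ?_, fun v => ?_⟩
    · simp only [Prod.mk_mul_mk, Units.val_mul, Matrix.transpose_mul]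
      calc (T : Matrix U U ℝ)ᵀ * (S : Matrix U U ℝ)ᵀ * (S * T)
          = (T : Matrix U U ℝ)ᵀ * ((S : Matrix U U ℝ)ᵀ * S) * T := by simp only [mul_assoc]
        _ = 1 := by rw [hS1, mul_one, hT1]
    · obtain ⟨ε₁, hε₁, e₁⟩ := hT2 v
      obtain ⟨ε₂, hε₂, e₂⟩ := hS2 (ρ l v)
      refine ⟨ε₁ * ε₂, ?_, ?_⟩
      · rcases hε₁ with rfl | rfl <;> rcases hε₂ with rfl | rfl <;> norm_num
      · simp only [Prod.mk_mul_mk, Units.val_mul, Matrix.transpose_mul, map_mul]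
        calc (S * T : Matrix U U ℝ) * LL β v * ((T : Matrix U U ℝ)ᵀ * (S : Matrix U U ℝ)ᵀ)
            = S * (T * LL β v * (T : Matrix U U ℝ)ᵀ) * (S : Matrix U U ℝ)ᵀ := by
              simp only [mul_assoc]
          _ = ε₁ • (S * LL β (ρ l v) * (S : Matrix U U ℝ)ᵀ) := by
              rw [e₁, mul_smul_comm, smul_mul_assoc]
          _ = _ := by rw [e₂, smul_smul]; rfl
  one_mem' := by
    refine ⟨?_, ?_, fun v => ⟨1, Or.inl rfl, ?_⟩⟩
    · simpa using one_mem_AA β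
    · simp
    · simp
  inv_mem' := by
    rintro ⟨T, k⟩ ⟨hT, hT1, hT2⟩
    simp only at hT hT1 hT2
    have hi := inv_val_eq T hT1
    have hT1' : (T : Matrix U U ℝ) * (T : Matrix U U ℝ)ᵀ = 1 := mul_eq_one_comm.mp hT1
    refine ⟨?_, ?_, fun v => ?_⟩
    · simp only [Prod.fst_inv]
      rw [hi]; exact AA_transpose β hT
    · simp only [Prod.fst_inv]
      rw [hi, Matrix.transpose_transpose]; exact hT1'
    · simp only [Prod.fst_inv, Prod.snd_inv]
      rw [hi, Matrix.transpose_transpose]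
      obtain ⟨ε, hε, e⟩ := hT2 (ρ k⁻¹ v)
      have hv : ρ k (ρ k⁻¹ v) = v := by
        have h0 : ρ k * ρ k⁻¹ = 1 := by rw [← map_mul, mul_inv_cancel, map_one]
        exact LinearMap.congr_fun h0 v
      rw [hv] at e
      refine ⟨ε, hε, ?_⟩
      have hεε : ε * ε = 1 := by rcases hε with h | h <;> rw [h] <;> norm_num
      calc (T : Matrix U U ℝ)ᵀ * LL β v * T
          = ε • ((T : Matrix U U ℝ)ᵀ * (ε • LL β v) * T) := by
            rw [mul_smul_comm, smul_mul_assoc, smul_smul, hεε, one_smul]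
        _ = ε • ((T : Matrix U U ℝ)ᵀ * (T * LL β (ρ k⁻¹ v) * (T : Matrix U U ℝ)ᵀ) * T) := by
            rw [e]
        _ = ε • (((T : Matrix U U ℝ)ᵀ * T) * LL β (ρ k⁻¹ v) * ((T : Matrix U U ℝ)ᵀ * T)) := by
            simp only [mul_assoc]
        _ = _ := by rw [hT1, one_mul, mul_one]

variable {β ρ} in
theorem mem_RR {x : (Matrix U U ℝ)ˣ × K} : x ∈ RR β ρ ↔
    (x.1 : Matrix U U ℝ) ∈ AA β ∧ (x.1 : Matrix U U ℝ)ᵀ * x.1 = 1 ∧
    ∀ v, ∃ ε : ℝ, (ε = 1 ∨ ε = -1) ∧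
      (x.1 : Matrix U U ℝ) * LL β v * (x.1 : Matrix U U ℝ)ᵀ = ε • LL β (ρ x.2 v) := Iff.rfl

/-- The projection onto `K`. -/
def piR : RR β ρ →* K := (MonoidHom.snd _ _).comp (RR β ρ).subtype

theorem piR_apply (r : RR β ρ) : piR β ρ r = r.1.2 := rfl

theorem piR_surjective (hnd : ∀ u, (∀ v, pol β v u = 0) → u = 0)
    (hq : ∀ (k : K) (u : U), β (ρ k u) (ρ k u) = β u u) : Function.Surjective (piR β ρ) := by
  intro k
  have hq' : ∀ u v, pol β (ρ k u) (ρ k v) = pol β u v := by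
    intro u v
    have h1 := hq k (u + v)
    have h2 := hq k u
    have h3 := hq k v
    simp only [map_add, LinearMap.add_apply] at h1
    rw [h2, h3] at h1
    simp only [pol]
    linear_combination h1
  obtain ⟨T, hT, hT1, hT2⟩ := exists_orth (g := ρ k) hnd (hq k) hq'
  have hT1' : T * Tᵀ = 1 := mul_eq_one_comm.mp hT1
  refine ⟨⟨(⟨T, Tᵀ, hT1', hT1⟩, k), hT, hT1, hT2⟩, rfl⟩

/-- The kernel of the projection. -/
def QQ : Subgroup (RR β ρ) := (piR β ρ).ker

instance : (QQ β ρ).Normal := by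
  unfold QQ; infer_instance

/-- The unit `±LL u`. -/
noncomputable def unitL (b : ZMod 2) (u : U) : (Matrix U U ℝ)ˣ where
  val := sg b • LL β u
  inv := sg b • (LL β u)ᵀ
  val_inv := by
    rw [smul_mul_assoc, mul_smul_comm, LL_mul_tr, smul_smul, sg_mul_self, one_smul]
  inv_val := by
    rw [smul_mul_assoc, mul_smul_comm, LL_tr_mul, smul_smul, sg_mul_self, one_smul]

theorem unitL_val (b : ZMod 2) (u : U) : (unitL β b u : Matrix U U ℝ) = sg b • LL β u := rfl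

theorem unitL_mul (b c : ZMod 2) (u v : U) :
    unitL β b u * unitL β c v = unitL β (b + c + β v u) (u + v) := by
  apply Units.ext
  rw [Units.val_mul, unitL_val, unitL_val, unitL_val, smul_mul_assoc, mul_smul_comm, LL_mul,
    smul_smul, smul_smul, sg_add, sg_add]

theorem unitL_mem (b : ZMod 2) (u : U) : ((unitL β b u, (1 : K))) ∈ RR β ρ := by
  rw [mem_RR]
  refine ⟨Submodule.smul_mem _ _ (LL_mem β u), ?_, fun v => ⟨sg (pol β u v), sg_or _, ?_⟩⟩
  · simp only [unitL_val, Matrix.transpose_smul, smul_mul_assoc, mul_smul_comm, smul_smul,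
      sg_mul_self, one_smul, LL_tr_mul]
  · simp only [unitL_val, Matrix.transpose_smul, smul_mul_assoc, mul_smul_comm, smul_smul,
      ← mul_assoc, sg_mul_self, one_mul, one_smul, LL_conj, map_one]
    rfl

/-- The parametrisation of the kernel. -/
noncomputable def psi (x : ZMod 2 × U) : QQ β ρ :=
  ⟨⟨(unitL β x.1 x.2, (1 : K)), unitL_mem β ρ x.1 x.2⟩, by
    change (piR β ρ) _ = 1
    rfl⟩

theorem psi_val (x : ZMod 2 × U) : (((psi β ρ x : RR β ρ) : (Matrix U U ℝ)ˣ × K).1 : Matrix U U ℝ)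
    = sg x.1 • LL β x.2 := rfl

theorem psi_mul (x y : ZMod 2 × U) :
    psi β ρ x * psi β ρ y = psi β ρ (x.1 + y.1 + β y.2 x.2, x.2 + y.2) := by
  apply Subtype.ext
  apply Subtype.ext
  apply Prod.ext
  · exact unitL_mul β _ _ _ _
  · exact mul_one _

theorem psi_injective : Function.Injective (psi β ρ) := by
  intro x y h
  have h1 : sg x.1 • LL β x.2 = sg y.1 • LL β y.2 := by
    rw [← psi_val β ρ, ← psi_val β ρ, h]
  have h2 := congrFun (congrFun h1 0) x.2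
  simp only [Matrix.smul_apply, smul_eq_mul, LL_zero_apply, if_true] at h2
  by_cases h3 : x.2 = y.2
  · rw [if_pos h3] at h2
    simp only [mul_one] at h2
    exact Prod.ext (sg_inj h2) h3
  · rw [if_neg h3, mul_zero, mul_one] at h2
    exact absurd h2 (sg_ne_zero _)

theorem psi_surjective (hnd : ∀ u, (∀ v, pol β v u = 0) → u = 0) :
    Function.Surjective (psi β ρ) := by
  rintro ⟨⟨⟨T, k⟩, hT, hT1, hT2⟩, hk⟩
  have hk1 : k = 1 := hk
  subst hk1
  simp only at hT hT1 hT2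
  have hT1' : (T : Matrix U U ℝ) * (T : Matrix U U ℝ)ᵀ = 1 := mul_eq_one_comm.mp hT1
  simp only [map_one] at hT2
  choose ε hε he using hT2
  have hεε : ∀ v, ε v * ε v = 1 := fun v => by
    rcases hε v with h | h <;> rw [h] <;> norm_num
  have hconj : ∀ v, LL β v * (T : Matrix U U ℝ) * (LL β v)ᵀ = ε v • (T : Matrix U U ℝ) := by
    intro v
    have h1 : (T : Matrix U U ℝ) * LL β v = ε v • (LL β v * T) := by
      have := he v
      calc (T : Matrix U U ℝ) * LL β v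
          = (T : Matrix U U ℝ) * LL β v * ((T : Matrix U U ℝ)ᵀ * T) := by rw [hT1, mul_one]
        _ = (T * LL β v * (T : Matrix U U ℝ)ᵀ) * T := by simp only [mul_assoc]
        _ = _ := by rw [this, smul_mul_assoc]; rfl
    have h2 : LL β v * (T : Matrix U U ℝ) = ε v • ((T : Matrix U U ℝ) * LL β v) := by
      rw [h1, smul_smul, hεε, one_smul]
    rw [h2, smul_mul_assoc, mul_assoc, LL_mul_tr, mul_one]
  obtain ⟨u, hu, -⟩ := exists_single hnd hT ε hconj
  set c : ℝ := (T : Matrix U U ℝ) 0 u with hc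
  have hcc : c * c = 1 := by
    have h1 := hT1
    rw [hu, Matrix.transpose_smul, smul_mul_assoc, mul_smul_comm, LL_tr_mul, smul_smul] at h1
    have h2 := congrFun (congrFun h1 0) 0
    simpa using h2
  have hc' : c = 1 ∨ c = -1 := by
    have : (c - 1) * (c + 1) = 0 := by ring_nf; linarith
    rcases mul_eq_zero.mp this with h | h
    · left; linarith
    · right; linarith
  obtain ⟨b, hb⟩ := exists_sg hc'
  refine ⟨(b, u), ?_⟩
  apply Subtype.ext
  apply Subtype.ext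
  apply Prod.ext
  · apply Units.ext
    change sg b • LL β u = _
    rw [hb]
    exact hu.symm
  · rfl

end Cfsg.Agent.Lib.LocalEven2.Ext1
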