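import Cfsg.Agent.Lib.LocalEven2.Ext2

/-!
# The extension realising an orthogonal module, and the transfer to a small universe
-/

set_option autoImplicit false

namespace Cfsg.Agent.Lib.LocalEven2.Ext1

open Matrix
open scoped commutatorElement

section
variable {U : Type*} [AddCommGroup U] [Module (ZMod 2) U] [Fintype U] [DecidableEq U]
variable (β : U →ₗ[ZMod 2] U →ₗ[ZMod 2] ZMod 2)
variable {K : Type*} [Group K] (ρ : K →* (U →ₗ[ZMod 2] U))

/-- The parametrisation of the kernel as an equivalence. -/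
noncomputable def psiE (hnd : ∀ u, (∀ v, pol β v u = 0) → u = 0) : ZMod 2 × U ≃ QQ β ρ :=
  Equiv.ofBijective (psi β ρ) ⟨psi_injective β ρ, psi_surjective β ρ hnd⟩

theorem psiE_apply (hnd : ∀ u, (∀ v, pol β v u = 0) → u = 0) (x : ZMod 2 × U) :
    psiE β ρ hnd x = psi β ρ x := rfl

/-- The projection of the kernel onto `U`. -/
noncomputable def chi (hnd : ∀ u, (∀ v, pol β v u = 0) → u = 0) : QQ β ρ →* Multiplicative U :=
  MonoidHom.mk' (fun a => Multiplicative.ofAdd ((psiE β ρ hnd).symm a).2) (by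
    intro a b
    obtain ⟨x, rfl⟩ := (psiE β ρ hnd).surjective a
    obtain ⟨y, rfl⟩ := (psiE β ρ hnd).surjective b
    have h0 : psiE β ρ hnd x * psiE β ρ hnd y = psiE β ρ hnd (x.1 + y.1 + β y.2 x.2, x.2 + y.2) :=
      psi_mul β ρ x y
    rw [h0]
    simp only [Equiv.symm_apply_apply]
    rfl)

theorem chi_psi (hnd : ∀ u, (∀ v, pol β v u = 0) → u = 0) (x : ZMod 2 × U) :
    chi β ρ hnd (psi β ρ x) = Multiplicative.ofAdd x.2 := by
  change Multiplicative.ofAdd ((psiE β ρ hnd).symm (psiE β ρ hnd x)).2 = _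
  rw [Equiv.symm_apply_apply]

theorem psi_zero : psi β ρ ((0 : ZMod 2), (0 : U)) = 1 := by
  apply Subtype.ext
  apply Subtype.ext
  apply Prod.ext
  · apply Units.ext
    change sg 0 • LL β (0 : U) = 1
    rw [sg_zero, one_smul, LL_zero]
  · rfl

theorem chi_surjective (hnd : ∀ u, (∀ v, pol β v u = 0) → u = 0) :
    Function.Surjective (chi β ρ hnd) := by
  intro u
  refine ⟨psi β ρ (0, Multiplicative.toAdd u), ?_⟩
  rw [chi_psi]
  rfl

theorem chi_ker (hnd : ∀ u, (∀ v, pol β v u = 0) → u = 0) :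
    (chi β ρ hnd).ker = Subgroup.center (QQ β ρ) := by
  ext a
  obtain ⟨⟨b, u⟩, rfl⟩ := psi_surjective β ρ hnd a
  rw [MonoidHom.mem_ker, chi_psi, Subgroup.mem_center_iff]
  constructor
  · intro h
    have hu : u = 0 := h
    subst hu
    intro g
    obtain ⟨⟨c, v⟩, rfl⟩ := psi_surjective β ρ hnd g
    rw [psi_mul, psi_mul]
    simp only [map_zero, LinearMap.zero_apply, add_zero, zero_add]
    rw [add_comm c b]
  · intro h
    have hu : u = 0 := by
      apply hnd
      intro v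
      have h1 := h (psi β ρ (0, v))
      rw [psi_mul, psi_mul] at h1
      have h2 := psi_injective β ρ h1
      have h3 : (0 : ZMod 2) + b + β u v = b + 0 + β v u := congrArg Prod.fst h2
      simp only [pol]
      have h4 : β v u + β u v = (β u v + β u v) := by
        linear_combination -h3
      rw [h4, zmod2_add_self]
    rw [hu]
    rfl

theorem chi_conj (hnd : ∀ u, (∀ v, pol β v u = 0) → u = 0) (r : RR β ρ) (a : QQ β ρ) :
    chi β ρ hnd ⟨r * a * r⁻¹, (inferInstance : (QQ β ρ).Normal).conj_mem (a : RR β ρ) a.2 r⟩ =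
      Multiplicative.ofAdd (ρ (piR β ρ r) (Multiplicative.toAdd (chi β ρ hnd a))) := by
  obtain ⟨⟨b, u⟩, rfl⟩ := psi_surjective β ρ hnd a
  rw [chi_psi]
  obtain ⟨⟨S, k⟩, hS, hS1, hS2⟩ := r
  simp only at hS hS1 hS2
  obtain ⟨ε, hε, e⟩ := hS2 u
  obtain ⟨c, hc⟩ := exists_sg hε
  have hi := inv_val_eq S hS1
  have key : (⟨(⟨⟨S, k⟩, hS, hS1, hS2⟩ : RR β ρ) * (psi β ρ (b, u) : RR β ρ) *
      (⟨⟨S, k⟩, hS, hS1, hS2⟩ : RR β ρ)⁻¹, (inferInstance : (QQ β ρ).Normal).conj_mem
        (psi β ρ (b, u) : RR β ρ) (psi β ρ (b, u)).2 _⟩ : QQ β ρ)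
      = psi β ρ (b + c, ρ k u) := by
    apply Subtype.ext
    apply Subtype.ext
    apply Prod.ext
    · apply Units.ext
      change (S : Matrix U U ℝ) * (sg b • LL β u) * ((S⁻¹ : (Matrix U U ℝ)ˣ) : Matrix U U ℝ)
        = sg (b + c) • LL β (ρ k u)
      rw [hi, mul_smul_comm, smul_mul_assoc, e, ← hc, smul_smul, sg_add]
    · change k * 1 * k⁻¹ = 1
      group
  rw [key, chi_psi]
  rfl

theorem chi_sq (hnd : ∀ u, (∀ v, pol β v u = 0) → u = 0) (a : QQ β ρ) :
    a * a = 1 ↔ β (Multiplicative.toAdd (chi β ρ hnd a)) (Multiplicative.toAdd (chi β ρ hnd a)) = 0 := by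
  obtain ⟨⟨b, u⟩, rfl⟩ := psi_surjective β ρ hnd a
  rw [chi_psi, psi_mul, ← psi_zero β ρ]
  simp only [toAdd_ofAdd]
  rw [add_self' b, add_self' u, zero_add]
  constructor
  · intro h
    exact congrArg Prod.fst (psi_injective β ρ h)
  · intro h
    rw [h]

theorem card_QQ (hnd : ∀ u, (∀ v, pol β v u = 0) → u = 0) :
    Nat.card (QQ β ρ) = 2 * Nat.card U := by
  rw [← Nat.card_congr (psiE β ρ hnd), Nat.card_prod, Nat.card_zmod]

theorem finite_QQ (hnd : ∀ u, (∀ v, pol β v u = 0) → u = 0) : Finite (QQ β ρ) :=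
  Finite.of_surjective _ (psi_surjective β ρ hnd)

theorem finite_RR [Finite K] (hnd : ∀ u, (∀ v, pol β v u = 0) → u = 0)
    (hq : ∀ (k : K) (u : U), β (ρ k u) (ρ k u) = β u u) : Finite (RR β ρ) := by
  haveI := finite_QQ β ρ hnd
  have e : RR β ρ ⧸ QQ β ρ ≃* K :=
    QuotientGroup.quotientKerEquivOfSurjective (piR β ρ) (piR_surjective β ρ hnd hq)
  haveI : Finite (RR β ρ ⧸ QQ β ρ) := Finite.of_equiv _ e.symm.toEquiv
  exact Finite.of_equiv _ (Subgroup.groupEquivQuotientProdSubgroup (s := QQ β ρ)).symm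

end

universe u v w

theorem exists_small (R₀ : Type u) [Group R₀] [Finite R₀] :
    ∃ (R : Type) (_ : Group R) (_ : Finite R), Nonempty (R ≃* R₀) := by
  let e : Fin (Nat.card R₀) ≃ R₀ := (Finite.equivFin R₀).symm
  exact ⟨Fin (Nat.card R₀), e.group, inferInstance, ⟨@Equiv.mulEquiv _ _ e _⟩⟩

theorem transfer {K : Type v} [Group K] {U : Type w} [AddCommGroup U] [Module (ZMod 2) U]
    (ρ : K →* (U →ₗ[ZMod 2] U)) (sq : U → Prop) {R₀ : Type u} [Group R₀] [Finite R₀]
    (Q₀ : Subgroup R₀) (hN₀ : Q₀.Normal) (e₀ : R₀ ⧸ Q₀ ≃* K) (χ₀ : ↥Q₀ →* Multiplicative U) (c : ℕ)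
    (hc : Nat.card Q₀ = c) (hs : Function.Surjective χ₀) (hk : χ₀.ker = Subgroup.center ↥Q₀)
    (he : ∀ (r : R₀) (a : ↥Q₀), χ₀ ⟨r * a * r⁻¹, hN₀.conj_mem (a : R₀) a.2 r⟩ =
      Multiplicative.ofAdd (ρ (e₀ (r : R₀ ⧸ Q₀)) (Multiplicative.toAdd (χ₀ a))))
    (hsq : ∀ a : ↥Q₀, a * a = 1 ↔ sq (Multiplicative.toAdd (χ₀ a))) :
    ∃ (R : Type) (_ : Group R) (_ : Finite R) (Q : Subgroup R) (hN : Q.Normal) (e : R ⧸ Q ≃* K)
      (χ : ↥Q →* Multiplicative U),
      Nat.card ↥Q = c ∧ Function.Surjective χ ∧ χ.ker = Subgroup.center ↥Q ∧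
      (∀ (r : R) (a : ↥Q), χ ⟨r * a * r⁻¹, hN.conj_mem (a : R) a.2 r⟩ =
        Multiplicative.ofAdd (ρ (e (r : R ⧸ Q)) (Multiplicative.toAdd (χ a)))) ∧
      ∀ a : ↥Q, a * a = 1 ↔ sq (Multiplicative.toAdd (χ a)) := by
  obtain ⟨R, iR, fR, ⟨f⟩⟩ := exists_small R₀
  let Q : Subgroup R := Q₀.comap f.toMonoidHom
  have hN : Q.Normal := hN₀.comap _
  let fQ : ↥Q →* ↥Q₀ := f.toMonoidHom.subgroupComap Q₀
  have hfQ : ∀ a : ↥Q, ((fQ a : ↥Q₀) : R₀) = f (a : R) := fun _ => rfl
  have hinj : Function.Injective fQ := by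
    intro a b h
    apply Subtype.ext
    apply f.injective
    rw [← hfQ, ← hfQ, h]
  have hsurj : Function.Surjective fQ := by
    intro b
    refine ⟨⟨f.symm b, ?_⟩, ?_⟩
    · change f (f.symm b) ∈ Q₀
      rw [MulEquiv.apply_symm_apply]; exact b.2
    · apply Subtype.ext
      rw [hfQ]; exact f.apply_symm_apply _
  have hmap : Q.map (f : R →* R₀) = Q₀ := by
    apply le_antisymm
    · rintro _ ⟨a, ha, rfl⟩
      exact ha
    · intro b hb
      refine ⟨f.symm b, ?_, f.apply_symm_apply _⟩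
      change f (f.symm b) ∈ Q₀
      rw [MulEquiv.apply_symm_apply]; exact hb
  let e : R ⧸ Q ≃* K := (QuotientGroup.congr Q Q₀ f hmap).trans e₀
  refine ⟨R, iR, fR, Q, hN, e, χ₀.comp fQ, ?_, hs.comp hsurj, ?_, ?_, ?_⟩
  · rw [← hc]
    exact Nat.card_congr (MulEquiv.ofBijective fQ ⟨hinj, hsurj⟩).toEquiv
  · ext a
    rw [MonoidHom.mem_ker, MonoidHom.comp_apply, ← MonoidHom.mem_ker, hk, Subgroup.mem_center_iff,
      Subgroup.mem_center_iff]
    constructor
    · intro h g
      apply hinj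
      rw [map_mul, map_mul]
      exact h _
    · intro h g
      obtain ⟨g, rfl⟩ := hsurj g
      rw [← map_mul, ← map_mul, h]
  · intro r a
    have h1 := he (f r) (fQ a)
    have h2 : fQ ⟨r * a * r⁻¹, hN.conj_mem (a : R) a.2 r⟩ =
        ⟨f r * (fQ a : R₀) * (f r)⁻¹, hN₀.conj_mem (fQ a : R₀) (fQ a).2 (f r)⟩ := by
      apply Subtype.ext
      rw [hfQ]
      simp only [map_mul, map_inv, hfQ]
    rw [MonoidHom.comp_apply, h2, h1, MonoidHom.comp_apply]
    rfl
  · intro a
    rw [MonoidHom.comp_apply, ← hsq]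
    constructor
    · intro h
      rw [← map_mul, h, map_one]
    · intro h
      apply hinj
      rw [map_mul, h, map_one]

/-- Extraspecial from the projection onto the Frattini quotient. -/
theorem extraspecial_of_chi {P : Type*} [Group P] [Finite P] {U : Type*} [AddCommGroup U]
    [Module (ZMod 2) U] (χ : P →* Multiplicative U) (hs : Function.Surjective χ)
    (hk : χ.ker = Subgroup.center P) (n : ℕ) (hn : 1 ≤ n) (hU : Nat.card U = 2 ^ (2 * n))
    (hP : Nat.card P = 2 ^ (2 * n + 1)) : Cfsg.IsExtraspecial 2 P := by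
  haveI : Fact (Nat.Prime 2) := ⟨Nat.prime_two⟩
  have hp : IsPGroup 2 P := IsPGroup.of_card hP
  -- the centre has order two
  have hcZ : Nat.card (Subgroup.center P) = 2 := by
    have h1 : Nat.card (Subgroup.center P) * (Subgroup.center P).index = Nat.card P :=
      Subgroup.card_mul_index _
    have h2 : (Subgroup.center P).index = 2 ^ (2 * n) := by
      rw [← hk, Subgroup.index_ker, MonoidHom.range_eq_top.mpr hs, Subgroup.card_top]
      rw [← hU]; rfl
    rw [h2, hP, pow_succ, mul_comm] at h1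
    exact Nat.eq_of_mul_eq_mul_left (by positivity) h1
  have hle : commutator P ≤ Subgroup.center P := by
    rw [_root_.commutator_def, Subgroup.commutator_le]
    intro a _ b _
    rw [← hk, MonoidHom.mem_ker, map_commutatorElement, commutatorElement_eq_one_iff_mul_comm]
    exact mul_comm _ _
  have hcomm : commutator P = Subgroup.center P := by
    refine Subgroup.eq_of_le_of_card_ge hle ?_
    rw [hcZ]
    by_contra hlt
    have hc1 : Nat.card (commutator P) = 1 := by
      have hpos : 0 < Nat.card (commutator P) := Nat.card_pos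
      omega
    have hbot : commutator P = ⊥ := Subgroup.eq_bot_of_card_eq _ hc1
    have hZ : Subgroup.center P = ⊤ := by
      rw [eq_top_iff]
      intro x _
      rw [Subgroup.mem_center_iff]
      intro y
      have h2 : ⁅y, x⁆ ∈ commutator P :=
        Subgroup.commutator_mem_commutator (Subgroup.mem_top _) (Subgroup.mem_top _)
      rw [hbot, Subgroup.mem_bot, commutatorElement_eq_one_iff_mul_comm] at h2
      exact h2
    rw [hZ, Subgroup.card_top, hP] at hcZ
    have h3 : 2 ^ (2 * n + 1) ≥ 2 ^ 3 := Nat.pow_le_pow_right (by norm_num) (by omega)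
    omega
  have hfr : frattini P = Subgroup.center P := by
    apply le_antisymm
    · refine Cfsg.Agent.Lib.Basic.frattini_le_of_commutator_le_of_pow_mem Nat.prime_two _ hle
        fun x => ?_
      rw [← hk, MonoidHom.mem_ker, map_pow]
      apply Multiplicative.toAdd.injective
      rw [toAdd_pow, toAdd_one, two_smul]
      exact add_self' _
    · rw [← hcomm]
      haveI : Group.IsNilpotent P := hp.isNilpotent
      exact Cfsg.Agent.Lib.Basic.commutator_le_frattini_of_isNilpotent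
  exact ⟨⟨hp, hfr, hcomm⟩, hcZ⟩

/-- The main construction. -/
theorem main_ext {K : Type*} [Group K] {U : Type*} [AddCommGroup U] [Module (ZMod 2) U]
    [Module.Finite (ZMod 2) U] (n : ℕ) (hn1 : 1 ≤ n) (hn : Module.finrank (ZMod 2) U = 2 * n)
    (ρ : Representation (ZMod 2) K U) (hρ : Function.Injective ρ) (q : QuadraticForm (ZMod 2) U)
    (hq : ∀ (k : K) (u : U), q (ρ k u) = q u) (hnd : (QuadraticMap.polarBilin q).Nondegenerate) :
    ∃ (R : Type) (_ : Group R) (_ : Finite R) (Q : Subgroup R) (hN : Q.Normal) (e : R ⧸ Q ≃* K)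
      (χ : ↥Q →* Multiplicative U), Cfsg.IsExtraspecial 2 ↥Q ∧ Nat.card ↥Q = 2 ^ (2 * n + 1) ∧
      Function.Surjective χ ∧ χ.ker = Subgroup.center ↥Q ∧
      (∀ (r : R) (a : ↥Q), χ ⟨r * a * r⁻¹, hN.conj_mem (a : R) a.2 r⟩ =
        Multiplicative.ofAdd (ρ (e (r : R ⧸ Q)) (Multiplicative.toAdd (χ a)))) ∧
      ∀ a : ↥Q, a * a = 1 ↔ q (Multiplicative.toAdd (χ a)) = 0 := by
  classical
  haveI : Finite U := Module.finite_of_finite (ZMod 2)
  haveI : Fintype U := Fintype.ofFinite U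
  have hUc : Nat.card U = 2 ^ (2 * n) := by
    rw [Module.natCard_eq_pow_finrank (K := ZMod 2), hn, Nat.card_zmod]
  haveI : Finite K := by
    have h1 : Function.Injective (fun k : K => ((ρ k : U →ₗ[ZMod 2] U) : U → U)) := by
      intro a b h
      apply hρ
      exact DFunLike.coe_injective h
    exact Finite.of_injective _ h1
  let bU := Module.finBasis (ZMod 2) U
  let β : U →ₗ[ZMod 2] U →ₗ[ZMod 2] ZMod 2 := q.toBilin bU
  have hβ : ∀ u, β u u = q u := by
    intro u
    conv_rhs => rw [← QuadraticMap.toQuadraticMap_toBilin q bU]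
    rfl
  have hpol : ∀ u v, pol β u v = QuadraticMap.polarBilin q u v := by
    intro u v
    rw [QuadraticMap.polarBilin_apply_apply, QuadraticMap.polar, ← hβ, ← hβ, ← hβ]
    simp only [pol, map_add, LinearMap.add_apply]
    ring
  have hnd' : ∀ u, (∀ v, pol β v u = 0) → u = 0 := by
    intro u hu
    apply hnd.2
    intro v
    rw [← hpol]
    exact hu v
  have hq' : ∀ (k : K) (u : U), β (ρ k u) (ρ k u) = β u u := by
    intro k u
    rw [hβ, hβ, hq]
  haveI := finite_RR β ρ hnd' hq'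
  obtain ⟨R, iR, fR, Q, hN, e, χ, hc, hs, hk, he, hsq⟩ :=
    transfer ρ (fun u => q u = 0) (QQ β ρ) inferInstance
      (QuotientGroup.quotientKerEquivOfSurjective (piR β ρ) (piR_surjective β ρ hnd' hq'))
      (chi β ρ hnd') (2 ^ (2 * n + 1))
      (by rw [card_QQ β ρ hnd', hUc]; ring) (chi_surjective β ρ hnd') (chi_ker β ρ hnd')
      (fun r a => chi_conj β ρ hnd' r a)
      (fun a => by rw [chi_sq β ρ hnd', hβ])
  refine ⟨R, iR, fR, Q, hN, e, χ, ?_, hc, hs, hk, he, hsq⟩
  exact extraspecial_of_chi χ hs hk n hn1 hUc hc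

end Cfsg.Agent.Lib.LocalEven2.Ext1
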